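import Mathlib
import Cfsg.Prelude.Def_LieClassical

set_option autoImplicit false

namespace Cfsg.Agent.Lib.helper26.E27k5

open Matrix

theorem herm_smul_smul {n : ℕ} {F : Type*} [Field F] (q : ℕ) (a b : F) (x z : Fin n → F) :
    Cfsg.hermForm n F q (a • x) (b • z) = a * b ^ q * Cfsg.hermForm n F q x z := by
  simp only [Cfsg.hermForm, Pi.smul_apply, smul_eq_mul, Finset.mul_sum, mul_pow]
  exact Finset.sum_congr rfl fun i _ => by ring

/-- (K5) for S5999: eigenvectors of a unitary matrix for three distinct eigenvalues `l i` with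
`l i * l j ^ q ≠ 1` are linearly independent and pairwise orthogonal. -/
theorem three_eig {F : Type*} [Field F] [Fintype F] {q : ℕ} (hF : Fintype.card F = q ^ 2)
    (X : Matrix.GeneralLinearGroup (Fin 3) F) (hX : X ∈ Cfsg.GU 3 F q) (l : Fin 3 → F) (hinj : Function.Injective l)
    (hl : ∀ i j, i ≠ j → l i * l j ^ q ≠ 1) (W : Fin 3 → (Fin 3 → F)) (hW0 : ∀ i, W i ≠ 0)
    (hXW : ∀ i, (X : Matrix (Fin 3) (Fin 3) F) *ᵥ W i = l i • W i) :
    LinearIndependent F W ∧ ∀ i j, i ≠ j → Cfsg.hermForm 3 F q (W i) (W j) = 0 := by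
  have hX' : ∀ u v : Fin 3 → F,
      Cfsg.hermForm 3 F q ((X : Matrix (Fin 3) (Fin 3) F) *ᵥ u)
        ((X : Matrix (Fin 3) (Fin 3) F) *ᵥ v) = Cfsg.hermForm 3 F q u v := hX
  constructor
  · apply Module.End.eigenvectors_linearIndependent'
      (Matrix.toLin' (X : Matrix (Fin 3) (Fin 3) F)) l hinj W
    intro i
    rw [Module.End.hasEigenvector_iff, Module.End.mem_eigenspace_iff]
    exact ⟨by rw [Matrix.toLin'_apply]; exact hXW i, hW0 i⟩
  · intro i j hij
    have h1 := hX' (W i) (W j)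
    rw [hXW i, hXW j, herm_smul_smul] at h1
    have h2 : (l i * l j ^ q - 1) * Cfsg.hermForm 3 F q (W i) (W j) = 0 := by
      rw [sub_mul, one_mul, h1, sub_self]
    rcases mul_eq_zero.mp h2 with h | h
    · exact absurd (sub_eq_zero.mp h) (hl i j hij)
    · exact h

end Cfsg.Agent.Lib.helper26.E27k5
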