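import Mathlib
import Cfsg.Agent.Lib.helper1.MaxClass2

set_option autoImplicit false

namespace Cfsg.Agent.Lib.helper26.K4157c

open Subgroup
open scoped commutatorElement

theorem nat_key (t : ℕ) (ht : 1 ≤ t) : (4 * t - 2) * (2 * t + 1) + 2 = (4 * (2 * t)) * t := by
  obtain ⟨s, rfl⟩ := Nat.exists_eq_add_of_le ht
  have h : 4 * (1 + s) - 2 = 4 * s + 2 := by omega
  rw [h]; ring

/-- W4c: a group of order `2 ^ n` with a cyclic subgroup `⟨a⟩` of index two and an element `b`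
outside it acting on `a` by inversion, or by `a ↦ a ^ (2 ^ (n - 2) - 1)`, has maximal class. -/
theorem class_of_rel {X : Type*} [Group X] [Finite X] (n : ℕ) (hn : 3 ≤ n)
    (hX : Nat.card X = 2 ^ n) (a b : X) (ha : orderOf a = 2 ^ (n - 1))
    (hb : b ∉ Subgroup.zpowers a)
    (hrel : b * a * b⁻¹ = a⁻¹ ∨ (4 ≤ n ∧ b * a * b⁻¹ = a ^ (2 ^ (n - 2) - 1))) :
    Group.nilpotencyClass X = n - 1 := by
  obtain ⟨k, rfl⟩ : ∃ k, n = k + 3 := ⟨n - 3, by omega⟩
  have ha' : orderOf a = 4 * 2 ^ k := by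
    rw [ha]
    have : k + 3 - 1 = k + 2 := by omega
    rw [this]; ring
  have hX' : Nat.card X = 8 * 2 ^ k := by rw [hX]; ring
  set A := Subgroup.zpowers a with hA
  set N := Subgroup.zpowers (a ^ 2) with hN
  have hAcard : Nat.card A = 4 * 2 ^ k := by rw [hA, Nat.card_zpowers, ha']
  have hAidx : A.index = 2 := by
    have h := A.card_mul_index
    rw [hAcard, hX'] at h
    have hpos : 0 < 4 * 2 ^ k := by positivity
    exact Nat.eq_of_mul_eq_mul_left hpos (by linarith)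
  have hcomm : Commute (b * a * b⁻¹) a := by
    rcases hrel with h | ⟨_, h⟩
    · rw [h]; exact (Commute.refl a).inv_left
    · rw [h]; exact (Commute.refl a).pow_left _
  have hcm : b * a * b⁻¹ * a⁻¹ ∈ commutator X := by
    rw [commutator_def]
    exact Subgroup.commutator_mem_commutator (Subgroup.mem_top b) (Subgroup.mem_top a)
  -- exponent bookkeeping in the second case
  have he : ∀ m : ℕ, 2 ^ (m + 1 + 3 - 2) - 1 = 4 * 2 ^ m - 1 := by
    intro m
    have : m + 1 + 3 - 2 = m + 2 := by omega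
    rw [this]; ring_nf
  have heven : ∀ j : ℤ, a ^ j = (b * a * b⁻¹) ^ j → ∃ l : ℤ, j = 2 * l := by
    intro j hj
    rcases hrel with h | ⟨h4, h⟩
    · rw [h, inv_zpow] at hj
      have h1 : a ^ (2 * j) = 1 := by
        rw [two_mul, zpow_add]
        nth_rewrite 2 [hj]
        exact mul_inv_cancel _
      have h2 := orderOf_dvd_iff_zpow_eq_one.mpr h1
      rw [ha'] at h2
      obtain ⟨w, hw⟩ := h2
      push_cast at hw
      exact ⟨2 ^ k * w, by linarith⟩
    · obtain ⟨m, rfl⟩ : ∃ m, k = m + 1 := ⟨k - 1, by omega⟩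
      rw [h, he m] at hj
      rw [← zpow_natCast, ← zpow_mul] at hj
      have h1 : a ^ (((4 * 2 ^ m - 1 : ℕ) : ℤ) * j - j) = 1 := by
        rw [zpow_sub, ← hj, mul_inv_cancel]
      have h2 := orderOf_dvd_iff_zpow_eq_one.mpr h1
      rw [ha'] at h2
      obtain ⟨w, hw⟩ := h2
      have h1le : 1 ≤ 4 * 2 ^ m := by
        have : 1 ≤ 2 ^ m := Nat.one_le_two_pow
        omega
      have hc : ((4 * 2 ^ m - 1 : ℕ) : ℤ) = 4 * 2 ^ m - 1 := by
        push_cast [Nat.cast_sub h1le]; ring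
      rw [hc] at hw
      push_cast at hw
      have hp : (2 : ℤ) ^ (m + 1) = 2 * 2 ^ m := by ring
      rw [hp] at hw
      exact ⟨2 ^ m * j - 2 * 2 ^ m * w, by linarith⟩
  have ha2 : a ^ 2 ∈ commutator X := by
    rcases hrel with h | ⟨h4, h⟩
    · rw [h] at hcm
      have : a ^ 2 = (a⁻¹ * a⁻¹)⁻¹ := by group
      rw [this]; exact inv_mem hcm
    · obtain ⟨m, rfl⟩ : ∃ m, k = m + 1 := ⟨k - 1, by omega⟩
      rw [h, he m] at hcm
      have ht : 1 ≤ 2 ^ m := Nat.one_le_two_pow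
      have h1 : a ^ (4 * 2 ^ m - 1) * a⁻¹ = a ^ (4 * 2 ^ m - 2) := by
        have : 4 * 2 ^ m - 1 = (4 * 2 ^ m - 2) + 1 := by omega
        rw [this, pow_succ, mul_inv_cancel_right]
      rw [h1] at hcm
      have h2 : (a ^ (4 * 2 ^ m - 2)) ^ (2 * 2 ^ m + 1) * a ^ 2 = 1 := by
        rw [← pow_mul, ← pow_add, nat_key _ ht, pow_mul]
        have : 4 * (2 * 2 ^ m) = orderOf a := by rw [ha']; ring
        rw [this, pow_orderOf_eq_one, one_pow]
      have h3 : a ^ 2 = ((a ^ (4 * 2 ^ m - 2)) ^ (2 * 2 ^ m + 1))⁻¹ :=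
        eq_inv_of_mul_eq_one_right h2
      rw [h3]; exact inv_mem (pow_mem hcm _)
  have hsqA : ∀ x : X, x ^ 2 ∈ A := fun x => Subgroup.sq_mem_of_index_two hAidx x
  have hconj : ∀ x : X, x ∉ A → x * a * x⁻¹ = b * a * b⁻¹ := by
    intro x hx
    have h1 : x * b⁻¹ ∈ A := by
      rw [Subgroup.mul_mem_iff_of_index_two hAidx]
      constructor
      · intro h; exact absurd h hx
      · intro h; exact absurd (inv_mem_iff.mp h) hb
    obtain ⟨i, hi⟩ := Subgroup.mem_zpowers_iff.mp h1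
    have hx' : x = a ^ i * b := by rw [hi]; group
    rw [hx']
    have hc : Commute (a ^ i) (b * a * b⁻¹) := hcomm.symm.zpow_left i
    calc a ^ i * b * a * (a ^ i * b)⁻¹ = a ^ i * (b * a * b⁻¹) * (a ^ i)⁻¹ := by group
      _ = (b * a * b⁻¹) * a ^ i * (a ^ i)⁻¹ := by rw [hc.eq]
      _ = b * a * b⁻¹ := by group
  have hsq : ∀ x : X, x ^ 2 ∈ N := by
    intro x
    by_cases hx : x ∈ A
    · obtain ⟨i, rfl⟩ := Subgroup.mem_zpowers_iff.mp hx
      refine Subgroup.mem_zpowers_iff.mpr ⟨i, ?_⟩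
      rw [← zpow_natCast, ← zpow_natCast, ← zpow_mul, ← zpow_mul, mul_comm]
    · obtain ⟨j, hj⟩ := Subgroup.mem_zpowers_iff.mp (hsqA x)
      have h1 : a ^ j = (b * a * b⁻¹) ^ j := by
        rw [← hconj x hx, conj_zpow, hj]; group
      obtain ⟨l, rfl⟩ := heven j h1
      refine Subgroup.mem_zpowers_iff.mpr ⟨l, ?_⟩
      rw [← hj, ← zpow_natCast, ← zpow_mul]; norm_num
  have hle : commutator X ≤ N := by
    rw [commutator_def, Subgroup.commutator_le]
    intro x _ y _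
    have : ⁅x, y⁆ = x ^ 2 * (x⁻¹ * y) ^ 2 * (y⁻¹) ^ 2 := by
      rw [commutatorElement_def, pow_two, pow_two, pow_two]; group
    rw [this]
    exact mul_mem (mul_mem (hsq x) (hsq _)) (hsq _)
  have hge : N ≤ commutator X := by
    rw [hN, Subgroup.zpowers_le]; exact ha2
  have hNeq : commutator X = N := le_antisymm hle hge
  have hNcard : Nat.card N = 2 * 2 ^ k := by
    rw [hN, Nat.card_zpowers, orderOf_pow' a (by norm_num : (2 : ℕ) ≠ 0), ha']
    have : Nat.gcd (4 * 2 ^ k) 2 = 2 := Nat.gcd_eq_right ⟨2 * 2 ^ k, by ring⟩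
    rw [this]; omega
  have hNidx : N.index = 4 := by
    have h := N.card_mul_index
    rw [hNcard, hX'] at h
    have hpos : 0 < 2 * 2 ^ k := by positivity
    exact Nat.eq_of_mul_eq_mul_left hpos (by linarith)
  have hK : Cfsg.Agent.Lib.helper1.K4Quot X :=
    ⟨by rw [hNeq]; exact hNidx, fun x => by rw [hNeq]; exact hsq x⟩
  exact Cfsg.Agent.Lib.helper1.maxclass_of_k4 (k + 3) X (by omega) hX hK

end Cfsg.Agent.Lib.helper26.K4157c
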