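import Mathlib

set_option autoImplicit false

namespace Cfsg.Agent.Lib.helper26.S1456M3

open Subgroup
open scoped commutatorElement

/-- Fibre count for `d ↦ ⁅d, e⁆`. -/
theorem card_le_fix_mul {G : Type*} [Group G] [Finite G] (D D₁ : Subgroup G) (e : G)
    (h : ∀ d ∈ D, ⁅d, e⁆ ∈ D₁) :
    Nat.card D ≤ Nat.card ↥(D ⊓ Subgroup.centralizer ({e} : Set G)) * Nat.card D₁ := by
  classical
  haveI : Fintype G := Fintype.ofFinite G
  have cD : (Finset.univ.filter (fun x : G => x ∈ D)).card = Nat.card D :=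
    (Nat.subtype_card _ (fun x => by simp)).symm
  have cC : (Finset.univ.filter
      (fun x : G => x ∈ D ⊓ Subgroup.centralizer ({e} : Set G))).card
      = Nat.card ↥(D ⊓ Subgroup.centralizer ({e} : Set G)) :=
    (Nat.subtype_card _ (fun x => by simp)).symm
  have cD₁ : (Finset.univ.filter (fun x : G => x ∈ D₁)).card = Nat.card D₁ :=
    (Nat.subtype_card _ (fun x => by simp)).symm
  rw [← cD, ← cC, ← cD₁]
  have key := Finset.card_le_mul_card_image (f := fun d : G => ⁅d, e⁆)
    (Finset.univ.filter (fun x : G => x ∈ D))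
    (Finset.univ.filter (fun x : G => x ∈ D ⊓ Subgroup.centralizer ({e} : Set G))).card
    (by
      intro a ha
      obtain ⟨d₀, hd₀, rfl⟩ := Finset.mem_image.mp ha
      have hd₀D : d₀ ∈ D := by simpa using hd₀
      apply Finset.card_le_card_of_injOn (fun x => d₀⁻¹ * x)
      · intro x hx
        have hx' := Finset.mem_filter.mp (Finset.mem_coe.mp hx)
        have hxD : x ∈ D := by simpa using hx'.1
        have hxe : ⁅x, e⁆ = ⁅d₀, e⁆ := hx'.2
        rw [commutatorElement_def, commutatorElement_def] at hxe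
        have hxe' : x * e * x⁻¹ = d₀ * e * d₀⁻¹ := mul_right_cancel hxe
        have hcomm : d₀⁻¹ * x * e = e * (d₀⁻¹ * x) := by
          calc d₀⁻¹ * x * e = d₀⁻¹ * (x * e * x⁻¹) * x := by group
            _ = d₀⁻¹ * (d₀ * e * d₀⁻¹) * x := by rw [hxe']
            _ = e * (d₀⁻¹ * x) := by group
        simp only [Finset.coe_filter, Finset.mem_univ, true_and, Set.mem_setOf_eq,
          Subgroup.mem_inf]
        exact ⟨D.mul_mem (D.inv_mem hd₀D) hxD,
          Subgroup.mem_centralizer_singleton_iff.mpr hcomm⟩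
      · intro x _ y _ hxy
        exact mul_left_cancel hxy)
  have him : ((Finset.univ.filter (fun x : G => x ∈ D)).image (fun d : G => ⁅d, e⁆)).card
      ≤ (Finset.univ.filter (fun x : G => x ∈ D₁)).card := by
    apply Finset.card_le_card
    intro a ha
    obtain ⟨d, hd, rfl⟩ := Finset.mem_image.mp ha
    have hdD : d ∈ D := by simpa using hd
    simpa using h d hdD
  exact key.trans (Nat.mul_le_mul_left _ him)

/-- `⁅D, P⁆ = D` forces `D = ⊥` inside a `p`-group. -/
theorem eq_bot_of_comm_eq {G : Type*} [Group G] [Finite G] (p : ℕ) [Fact p.Prime]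
    (P D : Subgroup G) (hP : IsPGroup p P) (hDP : D ≤ P) (hD : ⁅D, P⁆ = D) : D = ⊥ := by
  haveI : Group.IsNilpotent ↥P := hP.isNilpotent
  obtain ⟨n, hn⟩ := (Subgroup.isNilpotent_iff_lowerCentralSeries P).mp inferInstance
  have key : ∀ k, D ≤ P.lowerCentralSeries k := by
    intro k
    induction k with
    | zero => rw [Subgroup.lowerCentralSeries_zero]; exact hDP
    | succ k ih =>
      rw [Subgroup.lowerCentralSeries_succ]
      calc D = ⁅D, P⁆ := hD.symm
        _ ≤ ⁅P.lowerCentralSeries k, P⁆ := Subgroup.commutator_mono ih le_rfl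
  exact le_bot_iff.mp (hn ▸ key n)

/-- The derived group acts trivially on a normal section of order at most `p`. -/
theorem comm_acts_trivially {G : Type*} [Group G] [Finite G] (p : ℕ) [Fact p.Prime]
    (D M : Subgroup G) [D.Normal] [M.Normal] (hMD : M ≤ D) (hDp : IsPGroup p D)
    (hcard : Nat.card D ≤ p * Nat.card M) :
    ∀ g ∈ commutator G, ∀ d ∈ D, g * d * g⁻¹ * d⁻¹ ∈ M := by
  classical
  have hp : p.Prime := Fact.out
  obtain ⟨π, hπ⟩ : ∃ π : G →* G ⧸ M, π = QuotientGroup.mk' M := ⟨_, rfl⟩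
  have hπs : Function.Surjective π := by rw [hπ]; exact QuotientGroup.mk'_surjective M
  haveI hN : (D.map π).Normal := Subgroup.Normal.map inferInstance π hπs
  have hcardmap : Nat.card ↥(D.map π) * Nat.card M = Nat.card D := by
    have h1 : Nat.card ↥(D.map π) * (D.map π).index = Nat.card (G ⧸ M) :=
      Subgroup.card_mul_index _
    have h2 : (D.map π).index = D.index := by
      rw [Subgroup.index_map, hπ, QuotientGroup.ker_mk', sup_eq_left.mpr hMD,
        MonoidHom.range_eq_top.mpr (QuotientGroup.mk'_surjective M), Subgroup.index_top, mul_one]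
    have h3 : Nat.card (G ⧸ M) = M.index := rfl
    have h4 : Nat.card M * M.index = Nat.card G := Subgroup.card_mul_index M
    have h5 : Nat.card D * D.index = Nat.card G := Subgroup.card_mul_index D
    have h0 : 0 < D.index := Nat.pos_of_ne_zero Subgroup.index_ne_zero_of_finite
    rw [h2, h3] at h1
    apply Nat.eq_of_mul_eq_mul_right h0
    calc Nat.card ↥(D.map π) * Nat.card M * D.index
        = Nat.card M * (Nat.card ↥(D.map π) * D.index) := by ring
      _ = Nat.card M * M.index := by rw [h1]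
      _ = Nat.card D * D.index := by rw [h4, h5]
  haveI hcyc : IsCyclic ↥(D.map π) := by
    apply isCyclic_of_card_dvd_prime (p := p)
    have hpow : IsPGroup p ↥(D.map π) := hDp.map π
    obtain ⟨k, hk⟩ := IsPGroup.iff_card.mp hpow
    have hMpos : 0 < Nat.card M := Nat.card_pos
    have hle : Nat.card ↥(D.map π) ≤ p := by
      have : Nat.card ↥(D.map π) * Nat.card M ≤ p * Nat.card M := hcardmap ▸ hcard
      exact Nat.le_of_mul_le_mul_right this hMpos
    rw [hk] at hle ⊢
    have hk1 : k ≤ 1 := by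
      by_contra hcon
      push Not at hcon
      have : p ^ 2 ≤ p ^ k := Nat.pow_le_pow_right hp.pos hcon
      have hp2 := hp.two_le
      nlinarith
    calc p ^ k ∣ p ^ 1 := pow_dvd_pow p hk1
      _ = p := pow_one p
  letI : CommGroup (MulAut ↥(D.map π)) :=
    (IsCyclic.mulAutMulEquiv ↥(D.map π)).toMonoidHom.commGroupOfInjective
      (IsCyclic.mulAutMulEquiv ↥(D.map π)).injective
  let φ : G →* MulAut ↥(D.map π) := (MulAut.conjNormal).comp π
  have hker := Abelianization.commutator_subset_ker φ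
  intro g hg d hd
  have h1 : φ g = 1 := hker hg
  have h2 : ((φ g) ⟨π d, Subgroup.mem_map_of_mem π hd⟩ : G ⧸ M) = π d := by
    rw [h1]; rfl
  have h3 : ((φ g) ⟨π d, Subgroup.mem_map_of_mem π hd⟩ : G ⧸ M) = π g * π d * (π g)⁻¹ :=
    MulAut.conjNormal_apply (π g) ⟨π d, Subgroup.mem_map_of_mem π hd⟩
  rw [h3] at h2
  have h4 : π (g * d * g⁻¹ * d⁻¹) = 1 := by
    rw [map_mul, map_mul, map_mul, map_inv, map_inv, h2, mul_inv_cancel]
  rw [hπ] at h4
  exact (QuotientGroup.eq_one_iff _).mp h4

/-- A `p'`-element stabilising `D ≥ M ≥ 1` (with `M` a `p`-group it centralises) centralises `D`. -/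
theorem stab_trivial {G : Type*} [Group G] [Finite G] (p : ℕ) [Fact p.Prime]
    (D M : Subgroup G) (hMp : IsPGroup p M) (g : G) (hg : (orderOf g).Coprime p)
    (h1 : ∀ d ∈ D, g * d * g⁻¹ * d⁻¹ ∈ M) (h2 : ∀ m ∈ M, g * m = m * g) :
    ∀ d ∈ D, g * d = d * g := by
  intro d hd
  obtain ⟨z, hz⟩ : ∃ z : G, z = g * d * g⁻¹ * d⁻¹ := ⟨_, rfl⟩
  have hzM : z ∈ M := hz ▸ h1 d hd
  have hgz : Commute g z := h2 z hzM
  have hconj : g * d * g⁻¹ = z * d := by rw [hz]; group
  have hpow : ∀ n : ℕ, g ^ n * d * (g ^ n)⁻¹ = z ^ n * d := by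
    intro n
    induction n with
    | zero => simp
    | succ n ih =>
      calc g ^ (n + 1) * d * (g ^ (n + 1))⁻¹ = g * (g ^ n * d * (g ^ n)⁻¹) * g⁻¹ := by
            rw [pow_succ']; group
        _ = g * (z ^ n * d) * g⁻¹ := by rw [ih]
        _ = (g * z ^ n) * g⁻¹ * (g * d * g⁻¹) := by group
        _ = (z ^ n * g) * g⁻¹ * (z * d) := by rw [(hgz.pow_right n).eq, hconj]
        _ = z ^ (n + 1) * d := by rw [pow_succ]; group
  have hzn : z ^ orderOf g = 1 := by
    have := hpow (orderOf g)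
    rw [pow_orderOf_eq_one, one_mul, inv_one, mul_one] at this
    exact (mul_eq_right.mp this.symm)
  obtain ⟨k, hk⟩ := hMp ⟨z, hzM⟩
  have hzk : z ^ p ^ k = 1 := by
    have := congrArg Subtype.val hk
    simpa using this
  have hgcd : z ^ (orderOf g).gcd (p ^ k) = 1 := pow_gcd_eq_one.mpr ⟨hzn, hzk⟩
  have hcop : (orderOf g).gcd (p ^ k) = 1 := Nat.Coprime.pow_right k hg
  rw [hcop, pow_one] at hgcd
  rw [hgcd, one_mul] at hconj
  calc g * d = g * d * g⁻¹ * g := by group
    _ = d * g := by rw [hconj]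

theorem cent_aux {G : Type*} [Group G] [Finite G] (p : ℕ) [Fact p.Prime] (P : Subgroup G)
    [P.Normal] (hP : IsPGroup p P) (e : G) (he : e ∈ P) :
    ∀ (n : ℕ) (D : Subgroup G) [D.Normal], Nat.card D = n → D ≤ P →
      Nat.card ↥(D ⊓ Subgroup.centralizer ({e} : Set G)) ≤ p →
      ∀ g ∈ commutator G, (orderOf g).Coprime p → g ∈ Subgroup.centralizer (D : Set G) := by
  intro n
  induction n using Nat.strong_induction_on with
  | _ n ih =>
    intro D _ hn hDP hfix g hg hgp
    by_cases hD : D = ⊥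
    · subst hD
      rw [Subgroup.mem_centralizer_iff]
      intro d hd
      have hd1 : d = 1 := Subgroup.mem_bot.mp hd
      rw [hd1, one_mul, mul_one]
    · have hD₁D : ⁅D, P⁆ ≤ D := Subgroup.commutator_le_left D P
      have hne : ⁅D, P⁆ ≠ D := fun h => hD (eq_bot_of_comm_eq p P D hP hDP h)
      have hlt : Nat.card ↥⁅D, P⁆ < Nat.card D := by
        rcases lt_or_eq_of_le (Subgroup.card_le_of_le hD₁D) with h | h
        · exact h
        · exact absurd (Subgroup.eq_of_le_of_card_ge hD₁D h.ge) hne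
      have hfix₁ : Nat.card ↥(⁅D, P⁆ ⊓ Subgroup.centralizer ({e} : Set G)) ≤ p :=
        (Subgroup.card_le_of_le (inf_le_inf_right _ hD₁D)).trans hfix
      have ih' := ih (Nat.card ↥⁅D, P⁆) (hn ▸ hlt) ⁅D, P⁆ rfl (hD₁D.trans hDP) hfix₁ g hg hgp
      have hF2 : Nat.card D ≤ p * Nat.card ↥⁅D, P⁆ :=
        (card_le_fix_mul D ⁅D, P⁆ e
          (fun d hd => Subgroup.commutator_mem_commutator hd he)).trans
          (Nat.mul_le_mul_right _ hfix)
      have hF4 := comm_acts_trivially p D ⁅D, P⁆ hD₁D (hP.to_le hDP) hF2 g hg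
      have hfin := stab_trivial p D ⁅D, P⁆ (hP.to_le (hD₁D.trans hDP)) g hgp hF4
        (fun m hm => ((Subgroup.mem_centralizer_iff.mp ih') m hm).symm)
      rw [Subgroup.mem_centralizer_iff]
      intro d hd
      exact (hfin d hd).symm

/-- (M3) for S1456. -/
theorem cent_of_small_fix {G : Type*} [Group G] [Finite G] (p : ℕ) [Fact p.Prime]
    (P D : Subgroup G) [P.Normal] [D.Normal] (hP : IsPGroup p P) (hDP : D ≤ P) (e : G)
    (he : e ∈ P)
    (hfix : Nat.card ↥(D ⊓ Subgroup.centralizer ({e} : Set G)) ≤ p) :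
    ∀ g ∈ commutator G, (orderOf g).Coprime p → g ∈ Subgroup.centralizer (D : Set G) :=
  cent_aux p P hP e he (Nat.card D) D rfl hDP hfix

end Cfsg.Agent.Lib.helper26.S1456M3
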