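import Mathlib
import Cfsg.Agent.Lib.helper26.S1456M3

set_option autoImplicit false

namespace Cfsg.Agent.Lib.helper26.S1456M3b

open Subgroup
open scoped commutatorElement

/-- An element of order prime to `p - 1` acts trivially on a normal section of order at most `p`. -/
theorem coprime_acts_trivially {G : Type*} [Group G] [Finite G] (p : ℕ) [Fact p.Prime]
    (D M : Subgroup G) [D.Normal] [M.Normal] (hMD : M ≤ D) (hDp : IsPGroup p D)
    (hcard : Nat.card D ≤ p * Nat.card M) :
    ∀ g : G, (orderOf g).Coprime (p - 1) → ∀ d ∈ D, g * d * g⁻¹ * d⁻¹ ∈ M := by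
  classical
  have hp : p.Prime := Fact.out
  obtain ⟨π, hπ⟩ : ∃ π : G →* G ⧸ M, π = QuotientGroup.mk' M := ⟨_, rfl⟩
  have hπs : Function.Surjective π := by rw [hπ]; exact QuotientGroup.mk'_surjective M
  haveI hN : (D.map π).Normal := Subgroup.Normal.map inferInstance π hπs
  have hcardmap : Nat.card ↥(D.map π) * Nat.card M = Nat.card D := by
    have h1 : Nat.card ↥(D.map π) * (D.map π).index = Nat.card (G ⧸ M) :=
      Subgroup.card_mul_index _
    have h2 : (D.map π).index = D.index := by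
      rw [Subgroup.index_map, hπ, QuotientGroup.ker_mk', sup_eq_left.mpr hMD,
        MonoidHom.range_eq_top.mpr (QuotientGroup.mk'_surjective M), Subgroup.index_top, mul_one]
    have h3 : Nat.card (G ⧸ M) = M.index := rfl
    have h4 : Nat.card M * M.index = Nat.card G := Subgroup.card_mul_index M
    have h5 : Nat.card D * D.index = Nat.card G := Subgroup.card_mul_index D
    have h0 : 0 < D.index := Nat.pos_of_ne_zero Subgroup.index_ne_zero_of_finite
    rw [h2, h3] at h1
    apply Nat.eq_of_mul_eq_mul_right h0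
    calc Nat.card ↥(D.map π) * Nat.card M * D.index
        = Nat.card M * (Nat.card ↥(D.map π) * D.index) := by ring
      _ = Nat.card M * M.index := by rw [h1]
      _ = Nat.card D * D.index := by rw [h4, h5]
  have hdvd : Nat.card ↥(D.map π) ∣ p := by
    have hpow : IsPGroup p ↥(D.map π) := hDp.map π
    obtain ⟨k, hk⟩ := IsPGroup.iff_card.mp hpow
    have hMpos : 0 < Nat.card M := Nat.card_pos
    have hle : Nat.card ↥(D.map π) ≤ p := by
      have : Nat.card ↥(D.map π) * Nat.card M ≤ p * Nat.card M := hcardmap ▸ hcard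
      exact Nat.le_of_mul_le_mul_right this hMpos
    rw [hk] at hle ⊢
    have hk1 : k ≤ 1 := by
      by_contra hcon
      push Not at hcon
      have : p ^ 2 ≤ p ^ k := Nat.pow_le_pow_right hp.pos hcon
      have hp2 := hp.two_le
      nlinarith
    calc p ^ k ∣ p ^ 1 := pow_dvd_pow p hk1
      _ = p := pow_one p
  haveI hcyc : IsCyclic ↥(D.map π) := isCyclic_of_card_dvd_prime (p := p) hdvd
  have hcardAut : Nat.card (MulAut ↥(D.map π)) ∣ p - 1 := by
    rw [IsCyclic.card_mulAut]
    rcases (Nat.dvd_prime hp).mp hdvd with h | h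
    · rw [h]; simp
    · rw [h, Nat.totient_prime hp]
  obtain ⟨φ, hφ⟩ : ∃ φ : G →* MulAut ↥(D.map π), φ = (MulAut.conjNormal).comp π := ⟨_, rfl⟩
  intro g hg d hd
  have h1 : φ g = 1 := by
    have ho1 : orderOf (φ g) ∣ orderOf g := orderOf_map_dvd φ g
    have ho2 : orderOf (φ g) ∣ p - 1 := (orderOf_dvd_natCard (φ g)).trans hcardAut
    have ho3 : orderOf (φ g) = 1 := (Nat.Coprime.coprime_dvd_left ho1 hg).eq_one_of_dvd ho2
    exact orderOf_eq_one_iff.mp ho3
  have h2 : ((φ g) ⟨π d, Subgroup.mem_map_of_mem π hd⟩ : G ⧸ M) = π d := by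
    rw [h1]; rfl
  have h3 : ((φ g) ⟨π d, Subgroup.mem_map_of_mem π hd⟩ : G ⧸ M) = π g * π d * (π g)⁻¹ := by
    rw [hφ]
    exact MulAut.conjNormal_apply (π g) ⟨π d, Subgroup.mem_map_of_mem π hd⟩
  rw [h3] at h2
  have h4 : π (g * d * g⁻¹ * d⁻¹) = 1 := by
    rw [map_mul, map_mul, map_mul, map_inv, map_inv, h2, mul_inv_cancel]
  rw [hπ] at h4
  exact (QuotientGroup.eq_one_iff _).mp h4

theorem cent_aux' {G : Type*} [Group G] [Finite G] (p : ℕ) [Fact p.Prime] (P : Subgroup G)
    [P.Normal] (hP : IsPGroup p P) (e : G) (he : e ∈ P) :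
    ∀ (n : ℕ) (D : Subgroup G) [D.Normal], Nat.card D = n → D ≤ P →
      Nat.card ↥(D ⊓ Subgroup.centralizer ({e} : Set G)) ≤ p →
      ∀ g : G, (orderOf g).Coprime (p * (p - 1)) → g ∈ Subgroup.centralizer (D : Set G) := by
  intro n
  induction n using Nat.strong_induction_on with
  | _ n ih =>
    intro D _ hn hDP hfix g hgp
    have hgp1 : (orderOf g).Coprime p := Nat.Coprime.coprime_mul_right_right hgp
    have hgp2 : (orderOf g).Coprime (p - 1) := Nat.Coprime.coprime_mul_left_right hgp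
    by_cases hD : D = ⊥
    · subst hD
      rw [Subgroup.mem_centralizer_iff]
      intro d hd
      have hd1 : d = 1 := Subgroup.mem_bot.mp hd
      rw [hd1, one_mul, mul_one]
    · have hD₁D : ⁅D, P⁆ ≤ D := Subgroup.commutator_le_left D P
      have hne : ⁅D, P⁆ ≠ D := fun h => hD (S1456M3.eq_bot_of_comm_eq p P D hP hDP h)
      have hlt : Nat.card ↥⁅D, P⁆ < Nat.card D := by
        rcases lt_or_eq_of_le (Subgroup.card_le_of_le hD₁D) with h | h
        · exact h
        · exact absurd (Subgroup.eq_of_le_of_card_ge hD₁D h.ge) hne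
      have hfix₁ : Nat.card ↥(⁅D, P⁆ ⊓ Subgroup.centralizer ({e} : Set G)) ≤ p :=
        (Subgroup.card_le_of_le (inf_le_inf_right _ hD₁D)).trans hfix
      have ih' := ih (Nat.card ↥⁅D, P⁆) (hn ▸ hlt) ⁅D, P⁆ rfl (hD₁D.trans hDP) hfix₁ g hgp
      have hF2 : Nat.card D ≤ p * Nat.card ↥⁅D, P⁆ :=
        (S1456M3.card_le_fix_mul D ⁅D, P⁆ e
          (fun d hd => Subgroup.commutator_mem_commutator hd he)).trans
          (Nat.mul_le_mul_right _ hfix)
      have hF4 := coprime_acts_trivially p D ⁅D, P⁆ hD₁D (hP.to_le hDP) hF2 g hgp2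
      have hfin := S1456M3.stab_trivial p D ⁅D, P⁆ (hP.to_le (hD₁D.trans hDP)) g hgp1 hF4
        (fun m hm => ((Subgroup.mem_centralizer_iff.mp ih') m hm).symm)
      rw [Subgroup.mem_centralizer_iff]
      intro d hd
      exact (hfin d hd).symm

/-- (M3') : as `cent_of_small_fix`, for elements of order prime to `p * (p - 1)`. -/
theorem cent_of_small_fix' {G : Type*} [Group G] [Finite G] (p : ℕ) [Fact p.Prime]
    (P D : Subgroup G) [P.Normal] [D.Normal] (hP : IsPGroup p P) (hDP : D ≤ P) (e : G)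
    (he : e ∈ P)
    (hfix : Nat.card ↥(D ⊓ Subgroup.centralizer ({e} : Set G)) ≤ p) :
    ∀ g : G, (orderOf g).Coprime (p * (p - 1)) → g ∈ Subgroup.centralizer (D : Set G) :=
  cent_aux' p P hP e he (Nat.card D) D rfl hDP hfix

end Cfsg.Agent.Lib.helper26.S1456M3b
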