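import Mathlib
import Cfsg.Agent.Lib.helper26.S1456M3b

set_option autoImplicit false

namespace Cfsg.Agent.Lib.helper26.S1454F

open scoped commutatorElement

/-- Relative form of `S1456M3b.coprime_acts_trivially`: an element of order prime to `p - 1`
normalising `M ≤ D` (`D` a `p`-group normalising `M`, `|D : M| ≤ p`) acts trivially on `D / M`. -/
theorem rel_coprime_acts_trivially {G : Type*} [Group G] [Finite G] (p : ℕ) [Fact p.Prime]
    (D M : Subgroup G) (hMD : M ≤ D) (hDp : IsPGroup p D)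
    (hDM : D ≤ Subgroup.normalizer (M : Set G)) (hcard : Nat.card D ≤ p * Nat.card M) (g : G)
    (hgD : g ∈ Subgroup.normalizer (D : Set G)) (hgM : g ∈ Subgroup.normalizer (M : Set G))
    (hg : (orderOf g).Coprime (p - 1)) : ∀ d ∈ D, g * d * g⁻¹ * d⁻¹ ∈ M := by
  obtain ⟨H, hH⟩ : ∃ H : Subgroup G,
      H = Subgroup.normalizer (D : Set G) ⊓ Subgroup.normalizer (M : Set G) := ⟨_, rfl⟩
  have hDH : D ≤ H := hH ▸ le_inf Subgroup.le_normalizer hDM
  have hMH : M ≤ H := hMD.trans hDH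
  have hgH : g ∈ H := hH ▸ ⟨hgD, hgM⟩
  have hDn : (D.subgroupOf H).Normal :=
    (Subgroup.normal_subgroupOf_iff_le_normalizer hDH).mpr (hH ▸ inf_le_left)
  have hMn : (M.subgroupOf H).Normal :=
    (Subgroup.normal_subgroupOf_iff_le_normalizer hMH).mpr (hH ▸ inf_le_right)
  have hcD : Nat.card ↥(D.subgroupOf H) = Nat.card D :=
    Nat.card_congr (Subgroup.subgroupOfEquivOfLe hDH).toEquiv
  have hcM : Nat.card ↥(M.subgroupOf H) = Nat.card M :=
    Nat.card_congr (Subgroup.subgroupOfEquivOfLe hMH).toEquiv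
  have hDp' : IsPGroup p ↥(D.subgroupOf H) :=
    hDp.of_equiv (Subgroup.subgroupOfEquivOfLe hDH).symm
  have hord : orderOf (⟨g, hgH⟩ : ↥H) = orderOf g := Subgroup.orderOf_mk g hgH
  have key := Cfsg.Agent.Lib.helper26.S1456M3b.coprime_acts_trivially (G := ↥H) p
    (D.subgroupOf H) (M.subgroupOf H)
    (fun x hx => by
      rw [Subgroup.mem_subgroupOf] at hx ⊢
      exact hMD hx) hDp' (by rw [hcD, hcM]; exact hcard) ⟨g, hgH⟩ (by rw [hord]; exact hg)
  intro d hd
  have h1 := key ⟨d, hDH hd⟩ (by rw [Subgroup.mem_subgroupOf]; exact hd)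
  rw [Subgroup.mem_subgroupOf] at h1
  simpa using h1

/-- (K): no proper `A`-invariant `R`-normal subgroup of index at most `p` when `⁅R, A⁆ = R` and the
elements of `A` have order prime to `p - 1`. -/
theorem no_index_p {G : Type*} [Group G] [Finite G] (p : ℕ) [Fact p.Prime]
    (R A N : Subgroup G) (hR : IsPGroup p R) (hA : A ≤ Subgroup.normalizer (R : Set G))
    (hq : ∀ a ∈ A, (orderOf a).Coprime (p - 1)) (hRA : ⁅R, A⁆ = R) (hNR : N ≤ R)
    (hRN : R ≤ Subgroup.normalizer (N : Set G)) (hAN : A ≤ Subgroup.normalizer (N : Set G))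
    (hcard : Nat.card R ≤ p * Nat.card N) : N = R := by
  apply le_antisymm hNR
  have hle : ⁅R, A⁆ ≤ N := by
    rw [Subgroup.commutator_le]
    intro r hr a ha
    have h1 := rel_coprime_acts_trivially p R N hNR hR hRN hcard a (hA ha) (hAN ha) (hq a ha) r hr
    have h2 : ⁅r, a⁆ = (a * r * a⁻¹ * r⁻¹)⁻¹ := by
      rw [commutatorElement_def]; group
    rw [h2]
    exact N.inv_mem h1
  rw [hRA] at hle
  exact hle

end Cfsg.Agent.Lib.helper26.S1454F
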