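import Mathlib
import Cfsg.Agent.Lib.helper26.OrderP3

set_option autoImplicit false

namespace Cfsg.Agent.Lib.helper26.S1454al

universe u

/-- In a finite `p`-group (`p` odd) whose elements of order dividing `p` are all central,
`x ^ p = y ^ p` forces `(x⁻¹ * y) ^ p = 1`. Strong induction on the order. -/
theorem pow_eq_aux (p : ℕ) [Fact p.Prime] (hp2 : p ≠ 2) :
    ∀ (n : ℕ) (R : Type u) [Group R] [Finite R], Nat.card R = n → IsPGroup p R →
      (∀ x : R, x ^ p = 1 → ∀ y : R, x * y = y * x) →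
      ∀ x y : R, x ^ p = y ^ p → (x⁻¹ * y) ^ p = 1 := by
  have hp : p.Prime := Fact.out
  intro n
  induction n using Nat.strong_induction_on with
  | _ n ih =>
  intro R _ _ hn hR hc x y hxy
  have key : ∀ c : R, c ^ p = 1 → y * x⁻¹ = c * x⁻¹ * y → (x⁻¹ * y) ^ p = 1 := by
    intro c hcp h
    have hcx : Commute c x⁻¹ := hc c hcp x⁻¹
    have hcy : Commute c y := hc c hcp y
    rw [Cfsg.Agent.Lib.helper26.mul_pow_class_two' x⁻¹ y c h hcx hcy p]
    have hdvd : p ∣ p.choose 2 :=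
      hp.dvd_choose_self (by norm_num) (lt_of_le_of_ne hp.two_le (Ne.symm hp2))
    obtain ⟨k, hk⟩ := hdvd
    rw [hk, pow_mul, hcp, one_pow, one_mul, inv_pow, hxy, inv_mul_cancel]
  have sub : ∀ M : Subgroup R, M ≠ ⊤ → ∀ a b : R, a ∈ M → b ∈ M → a ^ p = b ^ p →
      (a⁻¹ * b) ^ p = 1 := by
    intro M hM a b ha hb hab
    have hcard : Nat.card M < n := by
      rw [← hn]
      exact lt_of_le_of_ne (Subgroup.card_le_card_group M)
        (fun h => hM ((Subgroup.card_eq_iff_eq_top M).mp h))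
    have h1 := ih (Nat.card M) hcard M rfl (hR.to_subgroup M)
      (fun a ha b => Subtype.ext (hc a.1 (by simpa using congrArg Subtype.val ha) b.1))
      ⟨a, ha⟩ ⟨b, hb⟩ (Subtype.ext (by simpa using hab))
    simpa using congrArg Subtype.val h1
  by_cases hK : Subgroup.closure {x, y} = ⊤
  · by_cases hx : Subgroup.zpowers x = ⊤
    · have hy : y ∈ Subgroup.zpowers x := hx ▸ Subgroup.mem_top y
      obtain ⟨k, rfl⟩ := Subgroup.mem_zpowers_iff.mp hy
      apply key 1 (one_pow _)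
      rw [one_mul]
      exact (((Commute.refl x).zpow_left k).inv_right).eq
    · obtain ⟨M, hM, hxM⟩ := (eq_top_or_exists_le_coatom (Subgroup.zpowers x)).resolve_left hx
      have : Group.IsNilpotent R := hR.isNilpotent
      have hMn : M.Normal :=
        Subgroup.NormalizerCondition.normal_of_coatom M Group.normalizerCondition_of_isNilpotent hM
      have hxM' : x ∈ M := hxM (Subgroup.mem_zpowers x)
      have hzM : y⁻¹ * x * y ∈ M := by
        have := hMn.conj_mem x hxM' y⁻¹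
        simpa using this
      have e : (y⁻¹ * x * y) ^ p = x ^ p := by
        have h1 := conj_pow (a := y⁻¹) (b := x) (i := p)
        rw [inv_inv] at h1
        rw [h1, hxy, mul_assoc, ← pow_succ, pow_succ', inv_mul_cancel_left]
      have hc1 := sub M hM.1 x (y⁻¹ * x * y) hxM' hzM e.symm
      have hcy := hc _ hc1 y
      apply key (x⁻¹ * (y⁻¹ * x * y)) hc1
      have e2 : y * x⁻¹ = y * (x⁻¹ * (y⁻¹ * x * y)) * y⁻¹ * x⁻¹ * y := by group
      rw [e2, ← hcy]
      group
  · exact sub _ hK x y (Subgroup.subset_closure (by simp)) (Subgroup.subset_closure (by simp)) hxy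

/-- Type-level form. -/
theorem pow_eq_imp {R : Type*} [Group R] [Finite R] (p : ℕ) [Fact p.Prime] (hp2 : p ≠ 2)
    (hR : IsPGroup p R) (hc : ∀ x : R, x ^ p = 1 → ∀ y : R, x * y = y * x) (x y : R)
    (hxy : x ^ p = y ^ p) : (x⁻¹ * y) ^ p = 1 :=
  pow_eq_aux p hp2 (Nat.card R) R rfl hR hc x y hxy

/-- Subgroup form. -/
theorem pow_eq_imp_subgroup {G : Type*} [Group G] [Finite G] (p : ℕ) [Fact p.Prime] (hp2 : p ≠ 2)
    (R : Subgroup G) (hR : IsPGroup p R)
    (hc : ∀ x ∈ R, x ^ p = 1 → ∀ y ∈ R, x * y = y * x) (x y : G) (hx : x ∈ R) (hy : y ∈ R)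
    (hxy : x ^ p = y ^ p) : (x⁻¹ * y) ^ p = 1 := by
  have h1 := pow_eq_imp (R := ↥R) p hp2 hR
    (fun a ha b => Subtype.ext (hc a.1 a.2 (by simpa using congrArg Subtype.val ha) b.1 b.2))
    ⟨x, hx⟩ ⟨y, hy⟩ (Subtype.ext (by simpa using hxy))
  simpa using congrArg Subtype.val h1

end Cfsg.Agent.Lib.helper26.S1454al
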