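import Mathlib
import Cfsg.Agent.Lib.helper26.S1456M3b

set_option autoImplicit false

namespace Cfsg.Agent.Lib.helper26.S1455Q4

/-- (Q4) of the S1455 split: exact two-hypothesis form. -/
theorem cent_of_small_fix' {G : Type*} [Group G] [Finite G] (p : ℕ) [Fact p.Prime]
    (P D : Subgroup G) [P.Normal] [D.Normal] (hP : IsPGroup p P) (hDP : D ≤ P) (e : G)
    (he : e ∈ P)
    (hfix : Nat.card ↥(D ⊓ Subgroup.centralizer ({e} : Set G)) ≤ p) :
    ∀ g : G, (orderOf g).Coprime p → (orderOf g).Coprime (p - 1) →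
      g ∈ Subgroup.centralizer (D : Set G) :=
  fun g h1 h2 =>
    Cfsg.Agent.Lib.helper26.S1456M3b.cent_of_small_fix' p P D hP hDP e he hfix g
      (Nat.Coprime.mul_right h1 h2)

end Cfsg.Agent.Lib.helper26.S1455Q4
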