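import Mathlib
import Cfsg.Prelude.Def_SporadicB
import Cfsg.Prelude.Def_Solvable
import Cfsg.Agent.Lib.helper20.BaerSuzuki
import Cfsg.Agent.Lib.helper14.Basic

set_option autoImplicit false

namespace Cfsg.Agent.Lib.helper26

open Cfsg

section dihedral

variable {G : Type*} [Group G]

/-- the group generated by two involutions whose product has order dividing `4` is a `2`-group -/
theorem isPGroup_closure_pair {a b : G} (ha : a * a = 1) (hb : b * b = 1) (hab : (a * b) ^ 4 = 1) :
    IsPGroup 2 (Subgroup.closure ({a, b} : Set G)) := by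
  have hc3 : (a * b) ^ 3 = (a * b)⁻¹ := by
    apply eq_inv_of_mul_eq_one_left
    rw [← pow_succ]
    exact hab
  have hainv : a⁻¹ = a := inv_eq_of_mul_eq_one_left ha
  have hbinv : b⁻¹ = b := inv_eq_of_mul_eq_one_left hb
  have hac : a * (a * b) = (a * b) ^ 3 * a := by
    rw [hc3, mul_inv_rev, hainv, hbinv, ← mul_assoc, ha, one_mul, mul_assoc, ha, mul_one]
  have hacm : ∀ m : ℕ, a * (a * b) ^ m = (a * b) ^ (3 * m) * a := by
    intro m
    induction m with
    | zero => simp
    | succ m ih =>
      rw [pow_succ, ← mul_assoc, ih, mul_assoc, hac, ← mul_assoc, ← pow_add]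
      congr 2
  have key : ∀ x ∈ Subgroup.closure ({a, b} : Set G),
      ∃ n : ℕ, x = (a * b) ^ n ∨ x = (a * b) ^ n * a := by
    intro x hx
    induction hx using Subgroup.closure_induction with
    | mem x hx =>
      rcases hx with rfl | rfl
      · exact ⟨0, Or.inr (by simp)⟩
      · refine ⟨3, Or.inr ?_⟩
        rw [hc3, mul_inv_rev, hainv, hbinv, mul_assoc, ha, mul_one]
    | one => exact ⟨0, Or.inl (by simp)⟩
    | mul x y _ _ hx hy =>
      obtain ⟨n, hn | hn⟩ := hx <;> obtain ⟨m, hm | hm⟩ := hy
      · exact ⟨n + m, Or.inl (by rw [hn, hm, pow_add])⟩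
      · exact ⟨n + m, Or.inr (by rw [hn, hm, pow_add, mul_assoc])⟩
      · refine ⟨n + 3 * m, Or.inr ?_⟩
        rw [hn, hm, mul_assoc, hacm, pow_add, mul_assoc]
      · refine ⟨n + 3 * m, Or.inl ?_⟩
        rw [hn, hm]
        calc (a * b) ^ n * a * ((a * b) ^ m * a) = (a * b) ^ n * (a * (a * b) ^ m) * a := by
              simp only [mul_assoc]
          _ = (a * b) ^ n * ((a * b) ^ (3 * m) * a) * a := by rw [hacm]
          _ = (a * b) ^ n * (a * b) ^ (3 * m) * (a * a) := by simp only [mul_assoc]
          _ = (a * b) ^ (n + 3 * m) := by rw [ha, mul_one, pow_add]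
    | inv x _ hx =>
      obtain ⟨n, hn | hn⟩ := hx
      · refine ⟨3 * n, Or.inl ?_⟩
        rw [hn, ← inv_pow, ← hc3, ← pow_mul]
      · refine ⟨3 * (3 * n), Or.inr ?_⟩
        rw [hn, mul_inv_rev, hainv, ← inv_pow, ← hc3, ← pow_mul, hacm]
  rintro ⟨x, hx⟩
  refine ⟨2, Subtype.ext ?_⟩
  show x ^ 2 ^ 2 = 1
  obtain ⟨n, hn | hn⟩ := key x hx
  · rw [hn, ← pow_mul, mul_comm, pow_mul]
    norm_num
    rw [hab, one_pow]
  · have h2 : ((a * b) ^ n * a) * ((a * b) ^ n * a) = (a * b) ^ (4 * n) := by
      rw [mul_assoc, ← mul_assoc a, hacm, mul_assoc, ha, mul_one, ← pow_add]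
      congr 1
      omega
    have h3 : x ^ 2 = 1 := by
      rw [hn, pow_two, h2, pow_mul, hab, one_pow]
    norm_num
    have h4 : x ^ 4 = (x ^ 2) ^ 2 := by rw [← pow_mul]
    rw [h4, h3, one_pow]

end dihedral

section transpositions

variable {G : Type*} [Group G] {D : Set G}

theorem tt_sq (hD : IsThreeTranspositionSet D) {d : G} (hd : d ∈ D) : d * d = 1 := by
  have h := pow_orderOf_eq_one d
  rw [hD.1 d hd, pow_two] at h
  exact h

theorem tt_inv (hD : IsThreeTranspositionSet D) {d : G} (hd : d ∈ D) : d⁻¹ = d :=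
  inv_eq_of_mul_eq_one_left (tt_sq hD hd)

/-- two 3-transpositions commute or satisfy the braid relation -/
theorem tt_braid (hD : IsThreeTranspositionSet D) {d e : G} (hd : d ∈ D) (he : e ∈ D) :
    Commute d e ∨ d * e * d = e * d * e := by
  have hd2 := tt_sq hD hd
  have he2 := tt_sq hD he
  have hdi := tt_inv hD hd
  have hei := tt_inv hD he
  rcases hD.2 d hd e he with h | h
  · left
    have h1 : d * e * (d * e) = 1 := by rw [← pow_two]; exact h
    have h2 : d * e = (d * e)⁻¹ := eq_inv_of_mul_eq_one_left h1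
    rw [mul_inv_rev, hdi, hei] at h2
    exact h2
  · right
    have h1 : d * e * d * (e * d * e) = 1 := by
      have : (d * e) ^ 3 = d * e * d * (e * d * e) := by
        rw [pow_succ, pow_two]
        group
      rw [← this]
      exact h
    have h2 : d * e * d = (e * d * e)⁻¹ := eq_inv_of_mul_eq_one_left h1
    rw [mul_inv_rev, mul_inv_rev, hdi, hei, ← mul_assoc] at h2
    exact h2

theorem tt_conj_mem (hD : IsThreeTranspositionClass D) {d : G} (hd : d ∈ D) (g : G) :
    g * d * g⁻¹ ∈ D := by
  obtain ⟨d₀, -, hD0⟩ := hD.2.1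
  rw [hD0] at hd ⊢
  have hd' : IsConj d₀ d := hd
  show IsConj d₀ (g * d * g⁻¹)
  exact hd'.trans (isConj_iff.2 ⟨g, rfl⟩)

/-- in a class of `3`-transpositions with at least two members, some member does not commute
with `d` -/
theorem tt_exists_not_commute (hD : IsThreeTranspositionClass D) (hD2 : ∃ a ∈ D, ∃ b ∈ D, a ≠ b)
    {d : G} (hd : d ∈ D) : ∃ a ∈ D, ¬ Commute a d := by
  by_contra hcon
  push Not at hcon
  have hcen : d ∈ Subgroup.center G := by
    have hle : Subgroup.closure D ≤ Subgroup.centralizer ({d} : Set G) := by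
      rw [Subgroup.closure_le]
      intro a ha
      rw [SetLike.mem_coe, Subgroup.mem_centralizer_iff]
      intro x hx
      rw [Set.mem_singleton_iff] at hx
      rw [hx]
      exact (hcon a ha).eq.symm
    rw [hD.2.2] at hle
    rw [Subgroup.mem_center_iff]
    intro g
    have := hle (Subgroup.mem_top g)
    rw [Subgroup.mem_centralizer_iff] at this
    exact (this d rfl).symm
  obtain ⟨d₀, -, hD0⟩ := hD.2.1
  have hall : ∀ a ∈ D, a = d := by
    intro a ha
    rw [hD0] at ha hd
    have ha' : IsConj d₀ a := ha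
    have hd' : IsConj d₀ d := hd
    have h1 : IsConj d a := hd'.symm.trans ha'
    obtain ⟨g, hg⟩ := isConj_iff.1 h1
    rw [← hg]
    rw [Subgroup.mem_center_iff] at hcen
    rw [hcen g, mul_assoc, mul_inv_cancel, mul_one]
  obtain ⟨a, ha, b, hb, hab⟩ := hD2
  exact hab ((hall a ha).trans (hall b hb).symm)

/-- the key relation: if `x, y` are commuting involutions each braided with the involution `a`,
then `a` commutes with its conjugate under `x * y` -/
theorem tt_conj_commute {x y a : G} (hx : x * x = 1) (hxy : x * y = y * x)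
    (hxa : x * a * x = a * x * a) (hya : y * a * y = a * y * a) :
    a * (x * y * a * y * x) * a = x * y * a * y * x := by
  have hxyx : x * y * x = y := by rw [hxy, mul_assoc, hx, mul_one]
  calc a * (x * y * a * y * x) * a = a * x * (y * a * y) * x * a := by group
    _ = a * x * (a * y * a) * x * a := by rw [hya]
    _ = (a * x * a) * y * (a * x * a) := by group
    _ = (x * a * x) * y * (x * a * x) := by rw [← hxa]
    _ = x * a * (x * y * x) * a * x := by group
    _ = x * a * y * a * x := by rw [hxyx]
    _ = x * (a * y * a) * x := by group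
    _ = x * (y * a * y) * x := by rw [← hya]
    _ = x * y * a * y * x := by group

/-- the conjugation identity in `S₄`: `(a d v)²` conjugates `d` to `v` -/
theorem tt_conj_eq {d v a : G} (hd : d * d = 1) (ha : a * a = 1) (hdv : d * v = v * d)
    (hda : d * a * d = a * d * a) (hva : v * a * v = a * v * a) :
    (a * d * v * a * d * v) * d = v * (a * d * v * a * d * v) := by
  have hdvd : d * v * d = v := by rw [hdv, mul_assoc, hd, mul_one]
  have h1 : (a * d * v * a * d * v) * d = a * d * v * a * v := by
    calc (a * d * v * a * d * v) * d = a * d * v * a * (d * v * d) := by group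
      _ = a * d * v * a * v := by rw [hdvd]
  have h2 : v * (a * d * v * a * d * v) = a * d * v * a * v := by
    calc v * (a * d * v * a * d * v) = v * a * (d * v) * a * d * v := by group
      _ = v * a * (v * d) * a * d * v := by rw [hdv]
      _ = (v * a * v) * (d * a * d) * v := by group
      _ = (a * v * a) * (a * d * a) * v := by rw [hva, hda]
      _ = a * v * (a * a) * d * a * v := by group
      _ = a * v * d * a * v := by rw [ha, mul_one]
      _ = a * (v * d) * a * v := by group
      _ = a * (d * v) * a * v := by rw [hdv]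
      _ = a * d * v * a * v := by group
  rw [h1, h2]

end transpositions

end Cfsg.Agent.Lib.helper26
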