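import Mathlib
import Cfsg.Prelude.Def_FischerSpaces
import Cfsg.Agent.Lib.helper26.ThreeTrans

set_option autoImplicit false

/-!
# 3-transposition groups without commuting pairs: the group-theoretic core

`width_one_core`: if `D` is a conjugation-closed generating set of involutions all of whose pairwise
products cube to `1`, and `N` is a normal subgroup of odd order containing all commutators
`a g a⁻¹ g⁻¹` (`a ∈ D`), then `G = ⟨d⟩ N` and `N` is a `3`-group.
-/

namespace Cfsg.Agent.Lib.helper26

open Cfsg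
open scoped Pointwise

section oddcase

variable {G : Type*} [Group G]

/-- an involution normalises some Sylow `p`-subgroup of a normal subgroup `N` of odd order -/
theorem exists_invariant_sylow [Finite G] (N : Subgroup G) [N.Normal] (hN : Odd (Nat.card N))
    {d : G} (hd : d * d = 1) (p : ℕ) [Fact p.Prime] :
    ∃ P : Subgroup G, P ≤ N ∧ Nat.card P = p ^ (Nat.card N).factorization p ∧
      ∀ x ∈ P, d * x * d⁻¹ ∈ P := by
  classical
  haveI : Fact (Nat.Prime 2) := ⟨Nat.prime_two⟩
  have hZ : IsPGroup 2 (Subgroup.zpowers d) := by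
    rintro ⟨z, hz⟩
    refine ⟨1, ?_⟩
    obtain ⟨k, rfl⟩ := Subgroup.mem_zpowers_iff.1 hz
    apply Subtype.ext
    simp only [pow_one, Subgroup.coe_pow, Subgroup.coe_one]
    rw [← zpow_natCast, ← zpow_mul, mul_comm, zpow_mul]
    have h2 : d ^ ((2 : ℕ) : ℤ) = 1 := by rw [zpow_natCast, pow_two, hd]
    rw [h2, one_zpow]
  let φ : Subgroup.zpowers d →* MulAut N :=
    (MulAut.conjNormal).comp (Subgroup.zpowers d).subtype
  letI : MulAction (Subgroup.zpowers d) (Sylow p N) := MulAction.compHom (Sylow p N) φ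
  have hodd : ¬ 2 ∣ Nat.card (Sylow p N) := by
    obtain ⟨P₀⟩ : Nonempty (Sylow p N) := inferInstance
    intro h
    have h2 : 2 ∣ Nat.card N :=
      h.trans ((Sylow.card_dvd_index P₀).trans (Subgroup.index_dvd_card _))
    exact (Nat.not_even_iff_odd.2 hN) (even_iff_two_dvd.2 h2)
  obtain ⟨P, hP⟩ := hZ.nonempty_fixed_point_of_prime_not_dvd_card (Sylow p N) hodd
  have hfix : (MulAut.conjNormal d : MulAut N) • P = P := hP ⟨d, Subgroup.mem_zpowers d⟩
  refine ⟨(P : Subgroup N).map N.subtype, Subgroup.map_subtype_le _, ?_, ?_⟩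
  · rw [Subgroup.card_map_of_injective N.subtype_injective]
    exact P.card_eq_multiplicity
  · rintro _ ⟨y, hy, rfl⟩
    have h1 : (MulAut.conjNormal d : MulAut N) • y ∈
        (MulAut.conjNormal d : MulAut N) • (P : Subgroup N) :=
      Subgroup.smul_mem_pointwise_smul y _ _ hy
    rw [← Sylow.pointwise_smul_def, hfix] at h1
    refine ⟨(MulAut.conjNormal d : MulAut N) • y, h1, ?_⟩
    rw [MulAut.smul_def]
    exact MulAut.conjNormal_apply d y

/-- if every prime-power part of `|N|` other than the `3`-part divides `|C|`, then `N = T C`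
for a Sylow `3`-subgroup `T` of `N` -/
theorem exists_factor [Finite G] {N C T : Subgroup G} (hCN : C ≤ N) (hTN : T ≤ N)
    (hT : Nat.card T = 3 ^ (Nat.card N).factorization 3)
    (hC : ∀ p : ℕ, p.Prime → p ≠ 3 → p ^ (Nat.card N).factorization p ∣ Nat.card C) :
    ∀ n ∈ N, ∃ t ∈ T, t⁻¹ * n ∈ C := by
  classical
  have h1 : Nat.card C * C.relIndex N = Nat.card N := by
    have := Subgroup.relIndex_mul_relIndex ⊥ C N bot_le hCN
    rwa [Subgroup.relIndex_bot_left, Subgroup.relIndex_bot_left] at this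
  have h2 : Nat.card T * T.relIndex N = Nat.card N := by
    have := Subgroup.relIndex_mul_relIndex ⊥ T N bot_le hTN
    rwa [Subgroup.relIndex_bot_left, Subgroup.relIndex_bot_left] at this
  have hNpos : 0 < Nat.card N := Nat.card_pos
  have hcop : Nat.Coprime (C.relIndex N) (T.relIndex N) := by
    apply Nat.coprime_of_dvd
    intro q hq hq1 hq2
    by_cases h3 : q = 3
    · subst h3
      have : 3 ^ ((Nat.card N).factorization 3 + 1) ∣ Nat.card N := by
        rw [pow_succ, ← hT]
        conv_rhs => rw [← h2]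
        exact Nat.mul_dvd_mul_left _ hq2
      exact (Nat.pow_succ_factorization_not_dvd hNpos.ne' Nat.prime_three) this
    · have : q ^ ((Nat.card N).factorization q + 1) ∣ Nat.card N := by
        rw [pow_succ]
        conv_rhs => rw [← h1]
        exact Nat.mul_dvd_mul (hC q hq h3) hq1
      exact (Nat.pow_succ_factorization_not_dvd hNpos.ne' hq) this
  have h3 : C.relIndex N ∣ C.relIndex T := by
    have e1 : (T ⊓ C).relIndex T * T.relIndex N = (T ⊓ C).relIndex N :=
      Subgroup.relIndex_mul_relIndex _ _ _ inf_le_left hTN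
    have e2 : (T ⊓ C).relIndex C * C.relIndex N = (T ⊓ C).relIndex N :=
      Subgroup.relIndex_mul_relIndex _ _ _ inf_le_right hCN
    rw [Subgroup.inf_relIndex_left] at e1
    have : C.relIndex N ∣ C.relIndex T * T.relIndex N := by
      rw [e1, ← e2]; exact dvd_mul_left _ _
    exact hcop.dvd_of_dvd_mul_right this
  have hcard : Nat.card (N ⧸ C.subgroupOf N) ≤ Nat.card (T ⧸ C.subgroupOf T) := by
    have hne : (C.subgroupOf T).index ≠ 0 := Subgroup.index_ne_zero_of_finite
    exact Nat.le_of_dvd (Nat.pos_of_ne_zero hne) h3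
  have hbij := Function.Injective.bijective_of_nat_card_le
    (Subgroup.quotientSubgroupOfEmbeddingOfLE C hTN).injective hcard
  intro n hn
  obtain ⟨q, hq⟩ := hbij.2 (QuotientGroup.mk ⟨n, hn⟩)
  obtain ⟨t, rfl⟩ := QuotientGroup.mk_surjective q
  rw [Subgroup.quotientSubgroupOfEmbeddingOfLE_apply_mk] at hq
  have h4 := QuotientGroup.eq.1 hq
  exact ⟨t, t.2, by simpa [Subgroup.mem_subgroupOf] using h4⟩

/-- the core of the width-one theorem -/
theorem width_one_core [Finite G] {D : Set G} (hD : IsThreeTranspositionGroup D)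
    (hc : ∀ a ∈ D, ∀ b ∈ D, (a * b) ^ 3 = 1) (N : Subgroup G) [N.Normal]
    (hNodd : Odd (Nat.card N)) (hz : ∀ a ∈ D, ∀ g : G, a * g * a⁻¹ * g⁻¹ ∈ N) {d : G}
    (hd : d ∈ D) : Subgroup.zpowers d ⊔ N = ⊤ ∧ IsPGroup 3 N := by
  have hS := hD.1
  have hconj := hD.2.1
  have hgen := hD.2.2
  have hd2 := tt_sq hS hd
  have hdi := tt_inv hS hd
  haveI : Fact (Nat.Prime 3) := ⟨Nat.prime_three⟩
  have hprod : ∀ a ∈ D, ∀ b ∈ D, a * b ∈ N := by
    intro a ha b hb
    have h1 := hz a ha b
    rw [tt_inv hS ha, tt_inv hS hb] at h1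
    have h2 : a * b = (a * b * a * b)⁻¹ := by
      have h3 := hc a ha b hb
      apply eq_inv_of_mul_eq_one_left
      rw [← h3, pow_succ, pow_two]
      group
    rw [h2]
    exact N.inv_mem h1
  have hdN : d ∉ N := by
    intro h
    have h2 : orderOf d ∣ Nat.card N := by
      have := orderOf_dvd_natCard (⟨d, h⟩ : N)
      rwa [Subgroup.orderOf_mk] at this
    rw [hS.1 d hd] at h2
    exact (Nat.not_even_iff_odd.2 hNodd) (even_iff_two_dvd.2 h2)
  have htop : Subgroup.zpowers d ⊔ N = ⊤ := by
    rw [eq_top_iff, ← hgen, Subgroup.closure_le]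
    intro a ha
    have h1 : d * a ∈ N := hprod d hd a ha
    have h2 : a = d * (d * a) := by rw [← mul_assoc, hd2, one_mul]
    rw [SetLike.mem_coe, h2]
    exact Subgroup.mul_mem _ (Subgroup.mem_sup_left (Subgroup.mem_zpowers d))
      (Subgroup.mem_sup_right h1)
  refine ⟨htop, ?_⟩
  obtain ⟨T, hTN, hTcard, hTinv⟩ := exists_invariant_sylow N hNodd hd2 3
  have hTinv' : ∀ x ∈ T, d⁻¹ * x * d ∈ T := by
    intro x hx
    have := hTinv x hx
    rw [hdi] at this ⊢
    exact this
  obtain ⟨C, hCdef⟩ : ∃ C : Subgroup G, C = N ⊓ Subgroup.centralizer {d} := ⟨_, rfl⟩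
  have hCN : C ≤ N := by rw [hCdef]; exact inf_le_left
  have hCdiv : ∀ p : ℕ, p.Prime → p ≠ 3 → p ^ (Nat.card N).factorization p ∣ Nat.card C := by
    intro p hp hp3
    haveI := Fact.mk hp
    obtain ⟨P, hPN, hPcard, hPinv⟩ := exists_invariant_sylow N hNodd hd2 p
    have hPC : P ≤ C := by
      intro y hy
      rw [hCdef]
      refine ⟨hPN hy, Subgroup.mem_centralizer_iff.2 ?_⟩
      have hz1 : y⁻¹ * (d * y * d⁻¹) ∈ P := P.mul_mem (P.inv_mem hy) (hPinv y hy)
      have hz3 : (y⁻¹ * (d * y * d⁻¹)) ^ 3 = 1 := by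
        have e : y⁻¹ * (d * y * d⁻¹) = (y⁻¹ * d * y⁻¹⁻¹) * d⁻¹ := by group
        rw [e, hdi]
        exact hc _ (hconj y⁻¹ d hd) d hd
      have hz0 : y⁻¹ * (d * y * d⁻¹) = 1 := by
        have o1 : orderOf (y⁻¹ * (d * y * d⁻¹)) ∣ 3 := orderOf_dvd_of_pow_eq_one hz3
        have o2 : orderOf (y⁻¹ * (d * y * d⁻¹)) ∣ Nat.card P := by
          have := orderOf_dvd_natCard (⟨_, hz1⟩ : P)
          rwa [Subgroup.orderOf_mk] at this
        rw [hPcard] at o2
        have hcop : Nat.Coprime 3 (p ^ (Nat.card N).factorization p) :=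
          Nat.Coprime.pow_right _ ((Nat.coprime_primes Nat.prime_three hp).2 (Ne.symm hp3))
        exact orderOf_eq_one_iff.1 (Nat.eq_one_of_dvd_coprimes hcop o1 o2)
      intro x hx
      rw [Set.mem_singleton_iff] at hx
      subst hx
      have h5 : x * y * x⁻¹ = y := by
        have := congrArg (fun t => y * t) hz0
        simpa [mul_assoc] using this
      calc x * y = x * y * x⁻¹ * x := by group
        _ = y * x := by rw [h5]
    rw [← hPcard]
    exact Subgroup.card_dvd_of_le hPC
  have hfac := exists_factor hCN hTN hTcard hCdiv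
  have hDT : ∀ a ∈ D, a * d ∈ T := by
    intro a ha
    have hx : d * a ∈ N := hprod d hd a ha
    obtain ⟨t, ht, htc⟩ := hfac (d * a) hx
    obtain ⟨c, hc'⟩ : ∃ c, c = t⁻¹ * (d * a) := ⟨_, rfl⟩
    rw [← hc', hCdef] at htc
    have hcd : c * d = d * c := ((Subgroup.mem_centralizer_iff.1 htc.2) d rfl).symm
    have hda : d * a = t * c := by rw [hc']; group
    have ha2 := tt_sq hS ha
    have hai := tt_inv hS ha
    have h3 := hc d hd a ha
    have hbr : d * a * d = a * d * a := by
      have h4 : d * a * d * (a * d * a) = 1 := by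
        rw [← h3, pow_succ, pow_two]
        group
      have h5 := eq_inv_of_mul_eq_one_left h4
      rw [mul_inv_rev, mul_inv_rev, hai, hdi, ← mul_assoc] at h5
      exact h5
    have hxa : a = (d * a) * d * (d * a)⁻¹ := by
      rw [mul_inv_rev, hai, hdi]
      calc a = a * d * d := by rw [mul_assoc, hd2, mul_one]
        _ = (a * d * a) * a * d := by rw [mul_assoc (a * d) a a, ha2, mul_one]
        _ = (d * a * d) * a * d := by rw [hbr]
        _ = d * a * d * (a * d) := by group
    have hat : a = t * d * t⁻¹ := by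
      calc a = (d * a) * d * (d * a)⁻¹ := hxa
        _ = (t * c) * d * (t * c)⁻¹ := by rw [hda]
        _ = t * (c * d) * c⁻¹ * t⁻¹ := by group
        _ = t * (d * c) * c⁻¹ * t⁻¹ := by rw [hcd]
        _ = t * d * t⁻¹ := by group
    have e : a * d = t * (d * t⁻¹ * d⁻¹) := by
      rw [hdi]
      calc a * d = t * d * t⁻¹ * d := by rw [← hat]
        _ = t * (d * t⁻¹ * d) := by group
    rw [e]
    exact T.mul_mem ht (hTinv _ (T.inv_mem ht))
  have hall : ∀ g ∈ Subgroup.closure D, g ∈ T ∨ g * d ∈ T := by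
    intro g hg
    induction hg using Subgroup.closure_induction with
    | mem a ha => exact Or.inr (hDT a ha)
    | one => exact Or.inl T.one_mem
    | mul x y _ _ hx hy =>
      rcases hx with hx | hx <;> rcases hy with hy | hy
      · exact Or.inl (T.mul_mem hx hy)
      · exact Or.inr (by rw [mul_assoc]; exact T.mul_mem hx hy)
      · refine Or.inr ?_
        have e : x * y * d = (x * d) * (d⁻¹ * y * d) := by group
        rw [e]
        exact T.mul_mem hx (hTinv' y hy)
      · refine Or.inl ?_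
        have e : x * y = (x * d) * (d⁻¹ * (y * d) * d) * (d * d)⁻¹ := by group
        rw [e, hd2, inv_one, mul_one]
        exact T.mul_mem hx (hTinv' _ hy)
    | inv x _ hx =>
      rcases hx with hx | hx
      · exact Or.inl (T.inv_mem hx)
      · refine Or.inr ?_
        have e : x⁻¹ * d = (d * (x * d)⁻¹ * d⁻¹) * (d * d) := by group
        rw [e, hd2, mul_one]
        exact hTinv _ (T.inv_mem hx)
  have hNT : N ≤ T := by
    intro n hn
    rcases hall n (by rw [hgen]; exact Subgroup.mem_top n) with h | h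
    · exact h
    · exfalso
      apply hdN
      have e : d = n⁻¹ * (n * d) := by group
      rw [e]
      exact N.mul_mem (N.inv_mem hn) (hTN h)
  exact (IsPGroup.of_card hTcard : IsPGroup 3 T).to_le hNT

end oddcase

end Cfsg.Agent.Lib.helper26
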