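import Mathlib
import Cfsg.Prelude.Def_FischerSpaces
import Cfsg.Agent.Lib.helper16.ZStar
import Cfsg.Agent.Lib.helper9.PPrimeCore
import Cfsg.Agent.Lib.helper14.Basic
import Cfsg.Agent.Lib.helper26.TTOdd

set_option autoImplicit false

/-!
# 3-transposition groups without commuting pairs (via Glauberman's Z*-theorem)

`tt_odd_main`: if `D` is a conjugation-closed generating set of 3-transpositions of the finite group
`G` in which all pairwise products cube to `1` (no two distinct members commute), then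
`G = ⟨d⟩ O₃(G)`.  `tt_odd_mem`: then every `3`-element lies in `O₃(G)`.
-/

namespace Cfsg.Agent.Lib.helper26

open Cfsg

section

variable {G : Type*} [Group G]

theorem tt_odd_main [Finite G] {D : Set G} (hD : IsThreeTranspositionGroup D)
    (hc : ∀ a ∈ D, ∀ b ∈ D, (a * b) ^ 3 = 1) {d : G} (hd : d ∈ D) :
    Subgroup.zpowers d ⊔ pCore 3 G = ⊤ := by
  have hS := hD.1
  haveI := Cfsg.Agent.Lib.helper9.ppc_normal 2 G
  have hNodd : Odd (Nat.card (pPrimeCore 2 G)) :=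
    Nat.Coprime.odd_of_right (Cfsg.Agent.Lib.helper9.pPrimeCore_coprime 2 G)
  have hz : ∀ a ∈ D, ∀ g : G, a * g * a⁻¹ * g⁻¹ ∈ pPrimeCore 2 G := by
    intro a ha g
    refine Cfsg.Agent.Lib.helper16.ZStar.zstar a (hS.1 a ha) ?_ g
    intro g'
    have e : a * g' * a⁻¹ * g'⁻¹ = a * (g' * a * g'⁻¹) := by
      rw [tt_inv hS ha]
      group
    rw [e]
    have h3 : (a * (g' * a * g'⁻¹)) ^ 3 = 1 := hc a ha _ (hD.2.1 g' a ha)
    have o1 : orderOf (a * (g' * a * g'⁻¹)) ∣ 3 := orderOf_dvd_of_pow_eq_one h3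
    rcases (Nat.dvd_prime Nat.prime_three).1 o1 with h | h
    · rw [h]; exact odd_one
    · rw [h]; decide
  obtain ⟨htop, hp⟩ := width_one_core hD hc (pPrimeCore 2 G) hNodd hz hd
  have hle : pPrimeCore 2 G ≤ pCore 3 G :=
    Cfsg.Agent.Lib.helper14.le_pCore (Cfsg.Agent.Lib.helper9.ppc_normal 2 G) hp
  rw [eq_top_iff, ← htop]
  exact sup_le_sup_left hle _

theorem tt_odd_mem [Finite G] {D : Set G} (hD : IsThreeTranspositionGroup D)
    (hc : ∀ a ∈ D, ∀ b ∈ D, (a * b) ^ 3 = 1) {d : G} (hd : d ∈ D) {x : G} {k : ℕ}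
    (hx : x ^ 3 ^ k = 1) : x ∈ pCore 3 G := by
  have hS := hD.1
  haveI := Cfsg.Agent.Lib.helper14.pCore_normal' 3 G
  have htop := tt_odd_main hD hc hd
  have hxm : x ∈ Subgroup.zpowers d ⊔ pCore 3 G := by rw [htop]; exact Subgroup.mem_top x
  obtain ⟨z, hz, o, ho, rfl⟩ := Subgroup.mem_sup_of_normal_right.1 hxm
  have hz2 : z ^ 2 = 1 := by
    obtain ⟨j, rfl⟩ := Subgroup.mem_zpowers_iff.1 hz
    rw [← zpow_natCast, ← zpow_mul, mul_comm, zpow_mul]
    have h2 : d ^ ((2 : ℕ) : ℤ) = 1 := by rw [zpow_natCast, pow_two, tt_sq hS hd]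
    rw [h2, one_zpow]
  have h1 : ((z : G) : G ⧸ pCore 3 G) ^ 3 ^ k = 1 := by
    have e : ((z * o : G) : G ⧸ pCore 3 G) = (z : G ⧸ pCore 3 G) := by
      rw [QuotientGroup.mk_mul, (QuotientGroup.eq_one_iff o).2 ho, mul_one]
    rw [← e, ← QuotientGroup.mk_pow, hx, QuotientGroup.mk_one]
  have h2 : ((z : G) : G ⧸ pCore 3 G) ^ 2 = 1 := by
    rw [← QuotientGroup.mk_pow, hz2, QuotientGroup.mk_one]
  have h3 := pow_gcd_eq_one.2 ⟨h1, h2⟩
  have hg : Nat.gcd (3 ^ k) 2 = 1 := Nat.Coprime.pow_left k (by norm_num)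
  rw [hg, pow_one] at h3
  exact Subgroup.mul_mem _ ((QuotientGroup.eq_one_iff z).1 h3) ho

end

end Cfsg.Agent.Lib.helper26
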